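/-
Helper library (helper49): the pure p-group part of Bender-Glauberman 15.7 (case K ≠ 1), definitions.
-/
import Mathlib
import Cfsg.Prelude.Def_OddOrderLocal

set_option autoImplicit false

namespace Cfsg.Agent.Lib.Helper49.P1

/-- `W` is a subgroup of exponent `p` of `P`, strictly containing `Z₀`, with `[W, P] ≤ Z₀`. -/
structure IsW {G : Type*} [Group G] (p : ℕ) (P Z₀ W : Subgroup G) : Prop where
  le : W ≤ P
  pow : ∀ w ∈ W, w ^ p = 1
  comm : ∀ w ∈ W, ∀ y ∈ P, w * y * w⁻¹ * y⁻¹ ∈ Z₀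
  lt : Z₀ < W

end Cfsg.Agent.Lib.Helper49.P1
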