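/-
Helper library (helper49): the pure p-group part of Bender-Glauberman 15.7 (case K ≠ 1): basic tools.
-/
import Mathlib
import Cfsg.Agent.Lib.Helper12.HupCT
import Cfsg.Agent.Lib.Helper24.PGroup
import Cfsg.Agent.Lib.Helper49.P1.Defs

set_option autoImplicit false
set_option linter.unusedSectionVars false
set_option linter.unusedVariables false

namespace Cfsg.Agent.Lib.Helper49.P1

open Subgroup Cfsg

variable {G : Type*} [Group G] [Finite G] {p : ℕ} [Fact p.Prime]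

theorem conj_mem_of_normalizer {K A : Subgroup G} (hKA : K ≤ normalizer (A : Set G)) {k a : G}
    (hk : k ∈ K) (ha : a ∈ A) : k * a * k⁻¹ ∈ A := (mem_normalizer_iff.1 (hKA hk) a).1 ha

/-- [Q3] a group acting freely on `A ∖ B`. -/
theorem card_dvd_sub {K A B : Subgroup G} (hBA : B ≤ A) (hKA : K ≤ normalizer (A : Set G))
    (hKB : K ≤ normalizer (B : Set G))
    (hfree : ∀ k ∈ K, k ≠ 1 → A ⊓ centralizer ({k} : Set G) ≤ B) :
    Nat.card K ∣ Nat.card A - Nat.card B :=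
  Helper12.HupCT.card_dvd_of_free K A B hBA (fun _ hy _ hl => conj_mem_of_normalizer hKA hy hl)
    (fun _ hy _ hl => conj_mem_of_normalizer hKB hy hl)
    (fun y hy hy1 l hl h => hfree y hy hy1 ⟨hl, mem_centralizer_singleton_iff.2 h.symm⟩)

theorem le_normalizer_of_conj {K A : Subgroup G} (h : ∀ k ∈ K, ∀ a ∈ A, k * a * k⁻¹ ∈ A) :
    K ≤ normalizer (A : Set G) := by
  intro k hk
  rw [mem_normalizer_iff]
  intro z
  refine ⟨h k hk z, fun hz => ?_⟩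
  have := h k⁻¹ (inv_mem hk) _ hz
  simpa [mul_assoc] using this

theorem exists_ne_one_of_ne_bot {K : Subgroup G} (hK1 : K ≠ ⊥) : ∃ k ∈ K, k ≠ 1 := by
  by_contra hcon
  push Not at hcon
  exact hK1 ((eq_bot_iff_forall K).2 hcon)

theorem le_normalizer_of_fix' {P K Z₀ : Subgroup G}
    (hKP : K ≤ normalizer (P : Set G)) (hK1 : K ≠ ⊥)
    (hfix : ∀ k ∈ K, k ≠ 1 → P ⊓ centralizer ({k} : Set G) = Z₀) :
    K ≤ normalizer (Z₀ : Set G) := by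
  obtain ⟨k, hk, hk1⟩ := exists_ne_one_of_ne_bot hK1
  apply le_normalizer_of_conj
  intro k' hk' z hz
  have h1 : k' * k * k'⁻¹ ∈ K := mul_mem (mul_mem hk' hk) (inv_mem hk')
  have h2 : k' * k * k'⁻¹ ≠ 1 := fun h => hk1 (conj_eq_one_iff.1 h)
  rw [← hfix _ h1 h2]
  rw [← hfix k hk hk1] at hz
  refine mem_inf.2 ⟨conj_mem_of_normalizer hKP hk' hz.1, ?_⟩
  rw [mem_centralizer_singleton_iff]
  have h3 := mem_centralizer_singleton_iff.1 hz.2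
  calc k' * z * k'⁻¹ * (k' * k * k'⁻¹) = k' * (z * k) * k'⁻¹ := by group
    _ = k' * (k * z) * k'⁻¹ := by rw [h3]
    _ = k' * k * k'⁻¹ * (k' * z * k'⁻¹) := by group

theorem le_normalizer_of_fix {P K Z₀ : Subgroup G} (hKc : IsMulCommutative K)
    (hKP : K ≤ normalizer (P : Set G)) (hK1 : K ≠ ⊥)
    (hfix : ∀ k ∈ K, k ≠ 1 → P ⊓ centralizer ({k} : Set G) = Z₀) :
    K ≤ normalizer (Z₀ : Set G) := le_normalizer_of_fix' hKP hK1 hfix

/-! ### commutators into a central subgroup -/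

theorem comm_mul_left {P Z₀ : Subgroup G} (hZ₀c : Z₀ ≤ centralizer (P : Set G)) {a b t : G}
    (ha : a ∈ P) (hb : b * t * b⁻¹ * t⁻¹ ∈ Z₀) :
    (a * b) * t * (a * b)⁻¹ * t⁻¹ = (b * t * b⁻¹ * t⁻¹) * (a * t * a⁻¹ * t⁻¹) := by
  have h := mem_centralizer_iff.1 (hZ₀c hb) a ha
  calc (a * b) * t * (a * b)⁻¹ * t⁻¹ = (a * (b * t * b⁻¹ * t⁻¹)) * t * a⁻¹ * t⁻¹ := by group
    _ = ((b * t * b⁻¹ * t⁻¹) * a) * t * a⁻¹ * t⁻¹ := by rw [h]
    _ = _ := by group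

theorem comm_mul_right {P Z₀ : Subgroup G} (hZ₀c : Z₀ ≤ centralizer (P : Set G)) {w y y' : G}
    (hy : y ∈ P) (h' : w * y' * w⁻¹ * y'⁻¹ ∈ Z₀) :
    w * (y * y') * w⁻¹ * (y * y')⁻¹ = (w * y * w⁻¹ * y⁻¹) * (w * y' * w⁻¹ * y'⁻¹) := by
  have h := mem_centralizer_iff.1 (hZ₀c h') y hy
  calc w * (y * y') * w⁻¹ * (y * y')⁻¹ = (w * y * w⁻¹ * y⁻¹) * (y * (w * y' * w⁻¹ * y'⁻¹)) * y⁻¹ := by
        group
    _ = (w * y * w⁻¹ * y⁻¹) * ((w * y' * w⁻¹ * y'⁻¹) * y) * y⁻¹ := by rw [h]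
    _ = _ := by group

theorem comm_swap_mem {Z₀ : Subgroup G} {a b : G} (h : a * b * a⁻¹ * b⁻¹ ∈ Z₀) :
    b * a * b⁻¹ * a⁻¹ ∈ Z₀ := by
  have := inv_mem h
  simpa [mul_assoc] using this

/-- the homomorphism `a ↦ [a, t]` from `A` to `Z₀`. -/
def commHom {P Z₀ A : Subgroup G} (hZ₀P : Z₀ ≤ P) (hZ₀c : Z₀ ≤ centralizer (P : Set G))
    (hAP : A ≤ P) (t : G) (ht : ∀ a ∈ A, a * t * a⁻¹ * t⁻¹ ∈ Z₀) : ↥A →* ↥Z₀ where
  toFun a := ⟨a * t * (a : G)⁻¹ * t⁻¹, ht a a.2⟩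
  map_one' := by ext; simp
  map_mul' a b := by
    ext
    show ((a : G) * b) * t * ((a : G) * b)⁻¹ * t⁻¹ = _
    rw [comm_mul_left hZ₀c (hAP a.2) (ht b b.2)]
    exact mem_centralizer_iff.1 (hZ₀c (ht a a.2)) _ (hZ₀P (ht b b.2))

theorem card_eq_mul {P Z₀ A : Subgroup G} (hZ₀P : Z₀ ≤ P) (hZ₀c : Z₀ ≤ centralizer (P : Set G))
    (hAP : A ≤ P) (t : G) (ht : ∀ a ∈ A, a * t * a⁻¹ * t⁻¹ ∈ Z₀) :
    ∃ r, r ∣ Nat.card Z₀ ∧ Nat.card A = Nat.card ↥(A ⊓ centralizer ({t} : Set G)) * r := by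
  set φ := commHom hZ₀P hZ₀c hAP t ht with hφ
  have hker : φ.ker = (A ⊓ centralizer ({t} : Set G)).subgroupOf A := by
    ext a
    rw [MonoidHom.mem_ker, mem_subgroupOf, mem_inf, mem_centralizer_singleton_iff]
    constructor
    · intro h
      have h1 : (a : G) * t * (a : G)⁻¹ * t⁻¹ = 1 := congrArg Subtype.val h
      refine ⟨a.2, ?_⟩
      have h2 : (a : G) * t * (a : G)⁻¹ = t := by rwa [mul_inv_eq_one] at h1
      rwa [mul_inv_eq_iff_eq_mul] at h2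
    · rintro ⟨-, h⟩
      apply Subtype.ext
      show (a : G) * t * (a : G)⁻¹ * t⁻¹ = 1
      rw [h]; group
  refine ⟨Nat.card φ.range, card_subgroup_dvd_card _, ?_⟩
  rw [← index_ker, ← card_mul_index φ.ker, hker]
  congr 1
  exact Nat.card_congr (subgroupOfEquivOfLe inf_le_left).toEquiv

/-- `Ω₁` of an abelian subgroup. -/
def omA (p : ℕ) (A : Subgroup G) (hA : IsMulCommutative A) : Subgroup G where
  carrier := {y | y ∈ A ∧ y ^ p = 1}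
  one_mem' := ⟨one_mem _, one_pow _⟩
  mul_mem' := by
    rintro a b ⟨ha, hap⟩ ⟨hb, hbp⟩
    refine ⟨mul_mem ha hb, ?_⟩
    have hc : Commute a b := congrArg Subtype.val (hA.is_comm.comm (⟨a, ha⟩ : ↥A) ⟨b, hb⟩)
    rw [hc.mul_pow, hap, hbp, one_mul]
  inv_mem' := by
    rintro a ⟨ha, hap⟩
    exact ⟨inv_mem ha, by rw [inv_pow, hap, inv_one]⟩

theorem omA_le {A : Subgroup G} (hA : IsMulCommutative A) : omA p A hA ≤ A := fun _ h => h.1

theorem omA_elem {A : Subgroup G} (hA : IsMulCommutative A) :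
    IsElementaryAbelian p (omA p A hA) :=
  ⟨⟨⟨fun a b => Subtype.ext
    (congrArg Subtype.val (hA.is_comm.comm (⟨a, a.2.1⟩ : ↥A) (⟨b, b.2.1⟩ : ↥A)) :)⟩⟩,
    fun _ h => h.2⟩

theorem mem_omA {A : Subgroup G} (hA : IsMulCommutative A) {y : G} :
    y ∈ omA p A hA ↔ y ∈ A ∧ y ^ p = 1 := Iff.rfl

end Cfsg.Agent.Lib.Helper49.P1
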