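/-
Helper library (helper49): `O_p(H)` and `O_{p'}(H)` of a finite nilpotent subgroup `H`, as subgroups of
the ambient group.
-/
import Mathlib
import Cfsg.Agent.Lib.Helper48.Core

set_option autoImplicit false
set_option linter.unusedSectionVars false

namespace Cfsg.Agent.Lib.Helper49.P1

open Subgroup Cfsg

section abs

variable {H : Type*} [Group H] [Finite H]

theorem sylow_normal_of_nil (hH : Group.IsNilpotent H) {p : ℕ} [hp : Fact p.Prime] (S : Sylow p H) :
    (S : Subgroup H).Normal := by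
  have h := ((Group.isNilpotent_of_finite_tfae (G := H)).out 0 3).1 hH
  exact h p hp S

theorem sylow_eq_pCore (hH : Group.IsNilpotent H) {p : ℕ} [Fact p.Prime] (S : Sylow p H) :
    (S : Subgroup H) = pCore p H :=
  le_antisymm (Helper48.le_pCore (sylow_normal_of_nil hH S) S.2) (Helper48.pCore_le_sylow S)

theorem le_pCore_of_isPGroup (hH : Group.IsNilpotent H) {p : ℕ} [Fact p.Prime] {Q : Subgroup H}
    (hQ : IsPGroup p Q) : Q ≤ pCore p H := by
  obtain ⟨S, hS⟩ := hQ.exists_le_sylow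
  rw [← sylow_eq_pCore hH S]; exact hS

theorem sylow_le_pPrimeCore (hH : Group.IsNilpotent H) {p q : ℕ} [hp : Fact p.Prime]
    [hq : Fact q.Prime] (hqp : q ≠ p) (S : Sylow q H) : (S : Subgroup H) ≤ pPrimeCore p H :=
  Helper48.le_pPrimeCore (sylow_normal_of_nil hH S) (by
    obtain ⟨n, hn⟩ := IsPGroup.iff_card.1 S.2
    rw [hn]; exact Nat.Coprime.pow_left _ ((Nat.coprime_primes hq.out hp.out).2 hqp))

theorem commute_pCore_pPrimeCore {p : ℕ} [hp : Fact p.Prime] {a b : H} (ha : a ∈ pCore p H)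
    (hb : b ∈ pPrimeCore p H) : Commute a b := by
  have h1 : (pCore p H).Normal := sSup_normal _ (fun _ h => h.1)
  have h2 : (pPrimeCore p H).Normal := sSup_normal _ (fun _ h => h.1)
  have h3 : Disjoint (pCore p H) (pPrimeCore p H) := by
    apply disjoint_of_coprime_natCard
    obtain ⟨n, hn⟩ := IsPGroup.iff_card.1 (Helper48.isPGroup_pCore (G := H) (p := p))
    rw [hn]
    exact Nat.Coprime.pow_left _ (Helper48.card_pPrimeCore_coprime (G := H) (p := p)).symm
  exact commute_of_normal_of_disjoint _ _ h1 h2 h3 a b ha hb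

end abs

variable {G : Type*} [Group G] [Finite G]

/-- `O_p(H)` in the ambient group. -/
def PP (p : ℕ) (H : Subgroup G) : Subgroup G := (pCore p ↥H).map H.subtype

/-- `O_{p'}(H)` in the ambient group. -/
def CC (p : ℕ) (H : Subgroup G) : Subgroup G := (pPrimeCore p ↥H).map H.subtype

variable {p : ℕ} [hp : Fact p.Prime] {H : Subgroup G}

theorem PP_le (p : ℕ) (H : Subgroup G) : PP p H ≤ H := map_subtype_le _

theorem CC_le (p : ℕ) (H : Subgroup G) : CC p H ≤ H := map_subtype_le _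

theorem PP_isPGroup : IsPGroup p (PP p H) := Helper48.isPGroup_pCore.map _

theorem card_PP (p : ℕ) (H : Subgroup G) : Nat.card (PP p H) = Nat.card (pCore p ↥H) :=
  card_map_of_injective H.subtype_injective

theorem card_CC (p : ℕ) (H : Subgroup G) : Nat.card (CC p H) = Nat.card (pPrimeCore p ↥H) :=
  card_map_of_injective H.subtype_injective

theorem card_CC_coprime : (Nat.card (CC p H)).Coprime p := by
  rw [card_CC]; exact Helper48.card_pPrimeCore_coprime

theorem isCyclic_of_CC (h : IsCyclic (CC p H)) : IsCyclic (pPrimeCore p ↥H) :=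
  haveI : IsCyclic ↥(map H.subtype (pPrimeCore p ↥H)) := h
  isCyclic_of_injective ((pPrimeCore p ↥H).equivMapOfInjective _ H.subtype_injective).toMonoidHom
    ((pPrimeCore p ↥H).equivMapOfInjective _ H.subtype_injective).injective

theorem le_PP (hH : Group.IsNilpotent H) {Q : Subgroup G} (hQH : Q ≤ H) (hQ : IsPGroup p Q) :
    Q ≤ PP p H := by
  have h1 : Q.subgroupOf H ≤ pCore p ↥H := le_pCore_of_isPGroup hH (hQ.comap_subtype)
  have h2 := map_mono (f := H.subtype) h1
  rwa [map_subgroupOf_eq_of_le hQH] at h2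

theorem CC_le_centralizer_PP : CC p H ≤ centralizer (PP p H : Set G) := by
  rintro _ ⟨c, hc, rfl⟩
  rw [mem_centralizer_iff]
  rintro _ ⟨a, ha, rfl⟩
  exact congrArg Subtype.val (commute_pCore_pPrimeCore ha hc).eq

theorem sylow_map_eq_PP (hH : Group.IsNilpotent H) (S : Sylow p ↥H) :
    (S : Subgroup ↥H).map H.subtype = PP p H := by
  rw [sylow_eq_pCore hH S]; rfl

theorem sylow_map_le_CC (hH : Group.IsNilpotent H) {q : ℕ} [Fact q.Prime] (hqp : q ≠ p)
    (S : Sylow q ↥H) : (S : Subgroup ↥H).map H.subtype ≤ CC p H :=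
  map_mono (sylow_le_pPrimeCore hH hqp S)

theorem normalizer_le_normalizer_PP (hH : Group.IsNilpotent H) :
    normalizer (H : Set G) ≤ normalizer (PP p H : Set G) := by
  have key : ∀ n ∈ normalizer (H : Set G), ∀ z ∈ PP p H, n * z * n⁻¹ ∈ PP p H := by
    intro n hn z hz
    have h1 : (PP p H).map (MulAut.conj n).toMonoidHom ≤ PP p H := by
      apply le_PP hH
      · rintro _ ⟨y, hy, rfl⟩
        exact (mem_normalizer_iff.1 hn y).1 (PP_le p H hy)
      · exact PP_isPGroup.map _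
    exact h1 ⟨z, hz, rfl⟩
  intro n hn
  rw [mem_normalizer_iff]
  intro z
  refine ⟨key n hn z, fun h => ?_⟩
  have := key n⁻¹ (inv_mem hn) _ h
  simpa [mul_assoc] using this

/-- all Sylow `p`-subgroups are nonabelian as soon as one `p`-subgroup is. -/
theorem sylow_not_comm {P : Subgroup G} (hP : IsPGroup p P) (hPna : ¬ IsMulCommutative P)
    (S : Sylow p G) : ¬ IsMulCommutative (S : Subgroup G) := by
  intro hS
  obtain ⟨S₀, h⟩ := hP.exists_le_sylow
  obtain ⟨g, hg⟩ := MulAction.exists_smul_eq G S₀ S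
  apply hPna
  have key : ∀ y ∈ P, g * y * g⁻¹ ∈ (S : Subgroup G) := by
    intro y hy
    rw [← hg, Sylow.coe_subgroup_smul]
    exact ⟨y, h hy, rfl⟩
  refine ⟨⟨fun a b => Subtype.ext ?_⟩⟩
  have h1 := hS.is_comm.comm ⟨_, key a a.2⟩ ⟨_, key b b.2⟩
  have h2 : (g * a * g⁻¹) * (g * b * g⁻¹) = (g * b * g⁻¹) * (g * a * g⁻¹) :=
    congrArg Subtype.val h1
  have h3 : g * ((a : G) * b) * g⁻¹ = g * (b * a) * g⁻¹ := by
    calc g * ((a : G) * b) * g⁻¹ = (g * a * g⁻¹) * (g * b * g⁻¹) := by group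
      _ = (g * b * g⁻¹) * (g * a * g⁻¹) := h2
      _ = g * (b * a) * g⁻¹ := by group
  exact mul_left_cancel (mul_right_cancel h3)

theorem isMulCommutative_of_le {A B : Subgroup G} (h : A ≤ B) (hB : IsMulCommutative B) :
    IsMulCommutative A :=
  ⟨⟨fun a b => Subtype.ext
    (congrArg Subtype.val (hB.is_comm.comm (⟨a, h a.2⟩ : ↥B) (⟨b, h b.2⟩ : ↥B)) :)⟩⟩

theorem eq_zpowers_of_card_prime {A : Subgroup G} (hA : Nat.card A = p) {z : G} (hz : z ∈ A)
    (hz1 : z ≠ 1) : A = zpowers z := by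
  symm
  apply eq_of_le_of_card_ge (zpowers_le.2 hz)
  rw [Nat.card_zpowers, hA]
  have h1 : orderOf z ∣ p := hA ▸ orderOf_dvd_natCard A hz
  rcases (Nat.dvd_prime hp.out).1 h1 with h | h
  · exact absurd (orderOf_eq_one_iff.1 h) hz1
  · exact h.ge

end Cfsg.Agent.Lib.Helper49.P1
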