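/-
Helper library (helper49): the pure p-group part of Bender-Glauberman 15.7 (case K ≠ 1): piece Q1.
-/
import Cfsg.Agent.Lib.Helper49.P1.Base

set_option autoImplicit false
set_option linter.unusedSectionVars false
set_option linter.unusedVariables false
set_option linter.style.haveILetI false

namespace Cfsg.Agent.Lib.Helper49.P1

open Subgroup Cfsg
open scoped commutatorElement

variable {G : Type*} [Group G] [Finite G] {p : ℕ} [Fact p.Prime]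

theorem exists_second_center {P Z₀ : Subgroup G} (hP : IsPGroup p P) (hZ₀P : Z₀ ≤ P)
    (hZ₀c : Z₀ ≤ centralizer (P : Set G)) (hne : Z₀ ≠ P) :
    ∃ w ∈ P, w ∉ Z₀ ∧ w ^ p ∈ Z₀ ∧ ∀ y ∈ P, w * y * w⁻¹ * y⁻¹ ∈ Z₀ := by
  have hpp : p.Prime := Fact.out
  haveI hn : (Z₀.subgroupOf P).Normal := by
    constructor
    intro z hz g
    rw [mem_subgroupOf] at hz ⊢
    have := mem_centralizer_iff.1 (hZ₀c hz) g g.2
    have h2 : ((g * z * g⁻¹ : ↥P) : G) = z := by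
      push_cast; rw [this]; group
    rw [h2]; exact hz
  have hQ : IsPGroup p (↥P ⧸ Z₀.subgroupOf P) := hP.to_quotient _
  haveI : Nontrivial (↥P ⧸ Z₀.subgroupOf P) := by
    by_contra h
    rw [not_nontrivial_iff_subsingleton] at h
    apply hne
    apply le_antisymm hZ₀P
    intro y hy
    have : (QuotientGroup.mk (⟨y, hy⟩ : ↥P) : ↥P ⧸ Z₀.subgroupOf P) = 1 := Subsingleton.elim _ _
    rw [QuotientGroup.eq_one_iff] at this
    exact this
  haveI := hQ.center_nontrivial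
  have hcd : p ∣ Nat.card (center (↥P ⧸ Z₀.subgroupOf P)) := by
    rcases (hQ.to_subgroup (center _)).card_eq_or_dvd with h | h
    · exact absurd h (Finite.one_lt_card).ne'
    · exact h
  obtain ⟨c, hc⟩ := exists_prime_orderOf_dvd_card' p hcd
  obtain ⟨w, hw⟩ := QuotientGroup.mk_surjective (c : ↥P ⧸ Z₀.subgroupOf P)
  refine ⟨w, w.2, ?_, ?_, ?_⟩
  · intro hwZ
    have h1 : (c : ↥P ⧸ Z₀.subgroupOf P) = 1 := by
      rw [← hw, QuotientGroup.eq_one_iff]; exact hwZ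
    have h2 : c = 1 := Subtype.ext h1
    rw [h2, orderOf_one] at hc
    exact hpp.one_lt.ne hc
  · have h1 : (QuotientGroup.mk (w ^ p) : ↥P ⧸ Z₀.subgroupOf P) = 1 := by
      rw [QuotientGroup.mk_pow, hw, ← Subgroup.coe_pow, ← hc, pow_orderOf_eq_one]; rfl
    rw [QuotientGroup.eq_one_iff] at h1
    exact h1
  · intro y hy
    have h1 : (QuotientGroup.mk (w * ⟨y, hy⟩ * w⁻¹ * (⟨y, hy⟩ : ↥P)⁻¹) : ↥P ⧸ Z₀.subgroupOf P) = 1 := by
      rw [QuotientGroup.mk_mul, QuotientGroup.mk_mul, QuotientGroup.mk_mul, QuotientGroup.mk_inv,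
        QuotientGroup.mk_inv, hw, ← mem_center_iff.1 c.2 (QuotientGroup.mk ⟨y, hy⟩)]
      group
    rw [QuotientGroup.eq_one_iff] at h1
    exact h1

/-- the preimage in `P` of `Z(P/Z₀)`. -/
def T2 (P Z₀ : Subgroup G) (hZ₀c : Z₀ ≤ centralizer (P : Set G)) : Subgroup G where
  carrier := {w | w ∈ P ∧ ∀ y ∈ P, w * y * w⁻¹ * y⁻¹ ∈ Z₀}
  one_mem' := ⟨one_mem _, fun y _ => by simp⟩
  mul_mem' := by
    rintro a b ⟨ha, hac⟩ ⟨hb, hbc⟩
    refine ⟨mul_mem ha hb, fun y hy => ?_⟩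
    rw [comm_mul_left hZ₀c ha (hbc y hy)]
    exact mul_mem (hbc y hy) (hac y hy)
  inv_mem' := by
    rintro a ⟨ha, hac⟩
    refine ⟨inv_mem ha, fun y hy => ?_⟩
    have h := comm_mul_left hZ₀c (inv_mem ha) (hac y hy)
    have h1 : a⁻¹ * y * a⁻¹⁻¹ * y⁻¹ = (a * y * a⁻¹ * y⁻¹)⁻¹ := by
      rw [eq_inv_iff_mul_eq_one, mul_eq_one_iff_eq_inv, eq_comm, inv_eq_iff_mul_eq_one, ← h]
      simp
    rw [h1]
    exact inv_mem (hac y hy)

theorem T2_pow {P Z₀ : Subgroup G} (hZ₀c : Z₀ ≤ centralizer (P : Set G)) (hp2 : p ≠ 2) {a b : G}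
    (ha : a ∈ T2 P Z₀ hZ₀c) (hb : b ∈ T2 P Z₀ hZ₀c) (hbp : b ^ p ∈ Z₀) :
    (a * b) ^ p = a ^ p * b ^ p := by
  have hc : ⁅b, a⁆ ∈ Z₀ := hb.2 a ha.1
  exact Helper24.mul_pow_prime_of_commute p hp2 a b
    (mem_centralizer_iff.1 (hZ₀c hc) a ha.1).symm (mem_centralizer_iff.1 (hZ₀c hc) b hb.1).symm
    (mem_centralizer_iff.1 (hZ₀c hbp) a ha.1).symm

theorem T2_conj {P Z₀ K : Subgroup G} (hZ₀c : Z₀ ≤ centralizer (P : Set G))
    (hKP : K ≤ normalizer (P : Set G)) (hKZ : K ≤ normalizer (Z₀ : Set G)) {k w : G} (hk : k ∈ K)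
    (hw : w ∈ T2 P Z₀ hZ₀c) : k * w * k⁻¹ ∈ T2 P Z₀ hZ₀c := by
  refine ⟨conj_mem_of_normalizer hKP hk hw.1, fun y hy => ?_⟩
  have h1 : k⁻¹ * y * k ∈ P := by
    have := conj_mem_of_normalizer hKP (inv_mem hk) hy
    simpa using this
  have h2 := conj_mem_of_normalizer hKZ hk (hw.2 _ h1)
  have h3 : k * (w * (k⁻¹ * y * k) * w⁻¹ * (k⁻¹ * y * k)⁻¹) * k⁻¹ =
      k * w * k⁻¹ * y * (k * w * k⁻¹)⁻¹ * y⁻¹ := by group
  rwa [h3] at h2

/-- `Ω₁` of the preimage in `P` of `Z(P/Z₀)` (`p` odd). -/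
def WW (p : ℕ) [Fact p.Prime] (hp2 : p ≠ 2) (P Z₀ : Subgroup G)
    (hZ₀c : Z₀ ≤ centralizer (P : Set G)) : Subgroup G where
  carrier := {w | w ∈ T2 P Z₀ hZ₀c ∧ w ^ p = 1}
  one_mem' := ⟨one_mem _, one_pow _⟩
  mul_mem' := by
    rintro a b ⟨ha, hap⟩ ⟨hb, hbp⟩
    refine ⟨mul_mem ha hb, ?_⟩
    rw [T2_pow hZ₀c hp2 ha hb (by rw [hbp]; exact one_mem _), hap, hbp, one_mul]
  inv_mem' := by
    rintro a ⟨ha, hap⟩
    exact ⟨inv_mem ha, by rw [inv_pow, hap, inv_one]⟩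

theorem conj_pow_of_eq {k w u : G} (h : k * w * k⁻¹ = u * w) (hku : Commute k u) (m : ℕ) :
    k ^ m * w * (k ^ m)⁻¹ = u ^ m * w := by
  induction m with
  | zero => simp
  | succ m ih =>
    calc k ^ (m + 1) * w * (k ^ (m + 1))⁻¹ = k * (k ^ m * w * (k ^ m)⁻¹) * k⁻¹ := by
          rw [pow_succ']; group
      _ = k * (u ^ m * w) * k⁻¹ := by rw [ih]
      _ = (k * u ^ m) * w * k⁻¹ := by group
      _ = (u ^ m * k) * w * k⁻¹ := by rw [(hku.pow_right m).eq]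
      _ = u ^ m * (k * w * k⁻¹) := by group
      _ = u ^ m * (u * w) := by rw [h]
      _ = u ^ (m + 1) * w := by rw [pow_succ]; group

/-- [Q1] -/
theorem exists_W (hp2 : p ≠ 2) {P K Z₀ : Subgroup G} (hP : IsPGroup p P)
    (hKP : K ≤ normalizer (P : Set G)) (hK1 : K ≠ ⊥) (hKp : (Nat.card K).Coprime p)
    (hZ₀ : Nat.card Z₀ = p) (hZ₀P : Z₀ ≤ P) (hZ₀c : Z₀ ≤ centralizer (P : Set G))
    (hfix : ∀ k ∈ K, k ≠ 1 → P ⊓ centralizer ({k} : Set G) = Z₀)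
    (hPna : ¬ IsMulCommutative P) :
    ∃ W : Subgroup G, IsW p P Z₀ W ∧ K ≤ normalizer (W : Set G) := by
  have hpp : p.Prime := Fact.out
  have hKZ : K ≤ normalizer (Z₀ : Set G) := le_normalizer_of_fix' hKP hK1 hfix
  have hZpow : ∀ z ∈ Z₀, z ^ p = 1 := by
    intro z hz
    have := pow_card_eq_one' (G := ↥Z₀) (x := ⟨z, hz⟩)
    rw [hZ₀] at this
    exact congrArg Subtype.val this
  have hZW : Z₀ ≤ WW p hp2 P Z₀ hZ₀c := by
    intro z hz
    refine ⟨⟨hZ₀P hz, fun y hy => ?_⟩, hZpow z hz⟩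
    have := mem_centralizer_iff.1 (hZ₀c hz) y hy
    rw [← this]
    simp
  refine ⟨WW p hp2 P Z₀ hZ₀c, ⟨fun w hw => hw.1.1, fun w hw => hw.2, fun w hw => hw.1.2,
    lt_of_le_of_ne hZW ?_⟩, ?_⟩
  · intro heq
    have hne : Z₀ ≠ P := by
      rintro rfl
      exact hPna (le_centralizer_iff_isMulCommutative.1 hZ₀c)
    obtain ⟨w, hwP, hwZ, hwp, hwc⟩ := exists_second_center hP hZ₀P hZ₀c hne
    obtain ⟨k, hk, hk1⟩ := exists_ne_one_of_ne_bot hK1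
    have hwT : w ∈ T2 P Z₀ hZ₀c := ⟨hwP, hwc⟩
    have hkZ : ∀ z ∈ Z₀, k * z * k⁻¹ = z := by
      intro z hz
      rw [← hfix k hk hk1] at hz
      have := mem_centralizer_singleton_iff.1 hz.2
      rw [← this]; group
    have hw'T := T2_conj hZ₀c hKP hKZ hk hwT
    have huT : k * w * k⁻¹ * w⁻¹ ∈ T2 P Z₀ hZ₀c := mul_mem hw'T (inv_mem hwT)
    have hup : (k * w * k⁻¹ * w⁻¹) ^ p = 1 := by
      rw [T2_pow hZ₀c hp2 hw'T (inv_mem hwT) (by rw [inv_pow]; exact inv_mem hwp), conj_pow,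
        hkZ _ hwp, inv_pow, mul_inv_cancel]
    have huZ : k * w * k⁻¹ * w⁻¹ ∈ Z₀ := by
      rw [heq]; exact ⟨huT, hup⟩
    set u := k * w * k⁻¹ * w⁻¹ with hu
    have h1 : k * w * k⁻¹ = u * w := by rw [hu]; group
    have hku : Commute k u := by
      have := hkZ u huZ
      exact mul_inv_eq_iff_eq_mul.1 this
    have h2 := conj_pow_of_eq h1 hku (orderOf k)
    rw [pow_orderOf_eq_one] at h2
    have h3 : u ^ orderOf k = 1 := by
      have : w = u ^ orderOf k * w := by simpa using h2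
      exact (mul_eq_right.1 this.symm)
    have hcop : (orderOf k).Coprime p :=
      Nat.Coprime.coprime_dvd_left (orderOf_dvd_natCard K hk) hKp
    have hu1 : u = 1 := by
      have h4 : orderOf u ∣ Nat.gcd (orderOf k) p :=
        Nat.dvd_gcd (orderOf_dvd_of_pow_eq_one h3) (orderOf_dvd_of_pow_eq_one hup)
      rw [hcop.gcd_eq_one, Nat.dvd_one] at h4
      exact orderOf_eq_one_iff.1 h4
    apply hwZ
    rw [← hfix k hk hk1]
    refine mem_inf.2 ⟨hwP, mem_centralizer_singleton_iff.2 ?_⟩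
    rw [hu1, one_mul] at h1
    exact (mul_inv_eq_iff_eq_mul.1 h1).symm
  · apply le_normalizer_of_conj
    intro k hk w hw
    exact ⟨T2_conj hZ₀c hKP hKZ hk hw.1, by rw [conj_pow, hw.2]; group⟩

end Cfsg.Agent.Lib.Helper49.P1
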