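/-
Helper library (helper49): the pure p-group part of Bender-Glauberman 15.7 (case K ≠ 1): piece Q2.
-/
import Cfsg.Agent.Lib.Helper49.P1.Base

set_option autoImplicit false
set_option linter.unusedSectionVars false
set_option linter.unusedVariables false

namespace Cfsg.Agent.Lib.Helper49.P1

open Subgroup Cfsg

variable {G : Type*} [Group G] [Finite G] {p : ℕ} [Fact p.Prime]

/-- [Q2] -/
theorem card_W {P Z₀ W : Subgroup G} (hP : IsPGroup p P)
    (hZ₀ : Nat.card Z₀ = p) (hZ₀c : Z₀ ≤ centralizer (P : Set G)) (hW : IsW p P Z₀ W)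
    {x : G} (hxP : x ∈ P) (hxo : x ^ p = 1)
    (hab : IsMulCommutative ↥(P ⊓ centralizer ({x} : Set G)))
    (hrk : ∀ A : Subgroup G, A ≤ P ⊓ centralizer ({x} : Set G) → IsElementaryAbelian p A →
      Nat.card A ≤ p ^ 2) :
    Nat.card W = p ^ 2 ∨ (Nat.card W = p ^ 3 ∧ x ∈ W ∧ ¬ IsMulCommutative W) := by
  have hpp : p.Prime := Fact.out
  have hE2 : Nat.card (omA p _ hab) ≤ p ^ 2 := hrk _ (omA_le hab) (omA_elem hab)
  have hxE : x ∈ omA p _ hab := ⟨⟨hxP, mem_centralizer_singleton_iff.2 rfl⟩, hxo⟩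
  have hW0E : W ⊓ centralizer ({x} : Set G) ≤ omA p _ hab :=
    fun w hw => ⟨⟨hW.le hw.1, hw.2⟩, hW.pow w hw.1⟩
  obtain ⟨r, hr, hcard⟩ := card_eq_mul (hW.lt.le.trans hW.le) hZ₀c hW.le x
    (fun a ha => hW.comm a ha x hxP)
  rw [hZ₀] at hr
  have hrp : r ≤ p := Nat.le_of_dvd hpp.pos hr
  obtain ⟨n, hn⟩ := IsPGroup.iff_card.1 (hP.to_le hW.le)
  have hlt : p < Nat.card W := hZ₀ ▸ Helper24.card_lt_of_lt hW.lt
  have hn2 : 1 < n := by
    rw [hn] at hlt
    exact (Nat.pow_lt_pow_iff_right hpp.one_lt).1 (by simpa using hlt)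
  have hW0 : Nat.card ↥(W ⊓ centralizer ({x} : Set G)) ≤ p ^ 2 :=
    (card_le_of_le hW0E).trans hE2
  have hle : Nat.card W ≤ p ^ 3 := by
    rw [hcard, pow_succ]
    exact Nat.mul_le_mul hW0 hrp
  have hn3 : n ≤ 3 := by
    rw [hn] at hle
    exact (Nat.pow_le_pow_iff_right hpp.one_lt).1 hle
  have h23 : n = 2 ∨ n = 3 := by omega
  rcases h23 with rfl | rfl
  · exact Or.inl hn
  · right
    have hge : p ^ 2 ≤ Nat.card ↥(W ⊓ centralizer ({x} : Set G)) := by
      by_contra hcon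
      push Not at hcon
      have : Nat.card W < p ^ 3 := by
        rw [hcard, pow_succ]
        exact Nat.mul_lt_mul_of_lt_of_le hcon hrp hpp.pos
      omega
    have heq := eq_of_le_of_card_ge hW0E (hE2.trans hge)
    have hxW : x ∈ W := by
      rw [← heq] at hxE
      exact hxE.1
    refine ⟨hn, hxW, fun hc => ?_⟩
    have h1 : W ≤ P ⊓ centralizer ({x} : Set G) := fun w hw =>
      ⟨hW.le hw, mem_centralizer_singleton_iff.2
        (congrArg Subtype.val (hc.is_comm.comm (⟨w, hw⟩ : ↥W) ⟨x, hxW⟩))⟩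
    have h2 := hrk W h1 ⟨hc, hW.pow⟩
    rw [hn] at h2
    exact absurd ((Nat.pow_le_pow_iff_right hpp.one_lt).1 h2) (by norm_num)

end Cfsg.Agent.Lib.Helper49.P1
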